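import Cfsg.Agent.Lib.Helper11.SL2Free
import Cfsg.Agent.Lib.Helper11.Solv
import Cfsg.Agent.Lib.Helper84.ChainStab
import Cfsg.Agent.Lib.Helper34.PStable3
import Cfsg.Agent.S0274

/-! linear `p`-stability (`H` faithful on an elementary abelian `V`) from `QStable` (helper11; the reduction is
helper34's proof of S0595) -/

set_option autoImplicit false

namespace Cfsg.Agent.Lib.Helper11

open Cfsg Cfsg.Agent.Lib.Helper34 Cfsg.Agent.Lib.Helper33

universe u

theorem dicksonHyp {p : ℕ} [Fact p.Prime] (hp : p ≠ 2) : DicksonHyp.{u} p :=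
  fun F _ _ _ H h => Cfsg.Agent.S0274.result p hp H h

theorem exists_section_le {G : Type*} [Group G] {S : Type*} [Group S] (H : Subgroup G)
    (h : Involves S ↥H) :
    ∃ (K L : Subgroup G) (_ : (L.subgroupOf K).Normal), K ≤ H ∧
      Nonempty ((K ⧸ L.subgroupOf K) ≃* S) := by
  obtain ⟨K, f, hf⟩ := exists_surjective_of_involves h
  let e : ↥K ≃* ↥(K.map H.subtype) := K.equivMapOfInjective H.subtype (Subgroup.subtype_injective _)
  let f' : ↥(K.map H.subtype) →* S := f.comp e.symm.toMonoidHom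
  have hf' : Function.Surjective f' := hf.comp e.symm.surjective
  have e2 : (f'.ker.map (K.map H.subtype).subtype).subgroupOf (K.map H.subtype) = f'.ker :=
    Subgroup.comap_map_eq_self_of_injective (Subgroup.subtype_injective _) _
  have hn : ((f'.ker.map (K.map H.subtype).subtype).subgroupOf (K.map H.subtype)).Normal := by
    rw [e2]; infer_instance
  exact ⟨K.map H.subtype, f'.ker.map (K.map H.subtype).subtype, hn, Subgroup.map_subtype_le _,
    ⟨(QuotientGroup.quotientMulEquivOfEq e2).trans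
      (QuotientGroup.quotientKerEquivOfSurjective f' hf')⟩⟩

section

variable {G : Type u} [Group G] {p : ℕ} [Fact p.Prime] {V H : Subgroup G}

theorem isPGroup_of_ea (hV : Cfsg.IsElementaryAbelian p V) : IsPGroup p V :=
  fun v => ⟨1, Subtype.ext (by rw [pow_one]; exact hV.2 v v.2)⟩

theorem normal_subgroupOf_sup (hHV : H ≤ Subgroup.normalizer (V : Set G)) :
    (V.subgroupOf (H ⊔ V)).Normal :=
  (Subgroup.normal_subgroupOf_iff_le_normalizer le_sup_right).mpr (sup_le hHV Subgroup.le_normalizer)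

theorem surjective_to_quot (hHV : H ≤ Subgroup.normalizer (V : Set G))
    [(V.subgroupOf (H ⊔ V)).Normal] :
    Function.Surjective ((QuotientGroup.mk' (V.subgroupOf (H ⊔ V))).comp
      (Subgroup.inclusion (le_sup_left : H ≤ H ⊔ V))) := by
  intro q
  obtain ⟨⟨x, hx⟩, rfl⟩ := QuotientGroup.mk'_surjective _ q
  obtain ⟨h, hh, v, hv, rfl⟩ := Cfsg.Agent.Lib.Helper84.mem_sup_of_le_normalizer hHV hx
  refine ⟨⟨h, hh⟩, ?_⟩
  rw [MonoidHom.comp_apply, QuotientGroup.mk'_eq_mk']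
  exact ⟨⟨v, (le_sup_right : V ≤ H ⊔ V) hv⟩, Subgroup.mem_subgroupOf.mpr hv, rfl⟩

theorem mem_pCore_of_qStable [Finite G] (hV : Cfsg.IsElementaryAbelian p V)
    (hHV : H ≤ Subgroup.normalizer (V : Set G))
    (hf : H ⊓ Subgroup.centralizer (V : Set G) = ⊥) (hQ : QStable p ↥(H ⊔ V)) (a : G) (haH : a ∈ H)
    (hq : ⁅⁅V, Subgroup.zpowers a⁆, Subgroup.zpowers a⁆ = ⊥) :
    a ∈ (Cfsg.pCore p H).map H.subtype := by
  have hVX : V ≤ H ⊔ V := le_sup_right
  have hHX : H ≤ H ⊔ V := le_sup_left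
  have hVp : IsPGroup p V := isPGroup_of_ea hV
  have hVn : (V.subgroupOf (H ⊔ V)).Normal := normal_subgroupOf_sup hHV
  have hVXp : IsPGroup p (V.subgroupOf (H ⊔ V)) := hVp.comap_of_injective _ (H ⊔ V).subtype_injective
  obtain ⟨M, hMn, haM, hM⟩ := hQ (V.subgroupOf (H ⊔ V)) ⟨a, hHX haH⟩ hVn hVXp
    (fun x hx => Subtype.ext (quadOn_of_commutator hq x (Subgroup.mem_subgroupOf.mp hx)))
  have hD : M.comap (Subgroup.inclusion hHX) ≤ pCore p ↥H := by
    apply Cfsg.Agent.Lib.Helper1.le_pCore (hMn.comap _)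
    rintro ⟨d, hd⟩
    obtain ⟨k, hk⟩ := hM _ hd
    refine ⟨k, Subtype.ext (Subtype.ext ?_)⟩
    have h1 : ((d : G)) ^ (p ^ k) ∈ H ⊓ Subgroup.centralizer (V : Set G) := by
      refine Subgroup.mem_inf.mpr ⟨Subgroup.pow_mem _ d.2 _, ?_⟩
      rw [Subgroup.mem_centralizer_iff]
      intro v hv
      have h2 := Subgroup.mem_centralizer_iff.mp hk ⟨v, hVX hv⟩ (Subgroup.mem_subgroupOf.mpr hv)
      exact congrArg Subtype.val h2
    rw [hf, Subgroup.mem_bot] at h1
    simpa using h1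
  exact ⟨⟨a, haH⟩, hD haM, rfl⟩

/-- not linearly `p`-stable ⇒ `SL₂(p)` is involved in `H`. -/
theorem involves_sl2_of_not_mem_pCore [Finite G] (hp : p ≠ 2) (hV : Cfsg.IsElementaryAbelian p V)
    (hHV : H ≤ Subgroup.normalizer (V : Set G))
    (hf : H ⊓ Subgroup.centralizer (V : Set G) = ⊥) (a : G) (haH : a ∈ H)
    (hq : ⁅⁅V, Subgroup.zpowers a⁆, Subgroup.zpowers a⁆ = ⊥)
    (hna : a ∉ (Cfsg.pCore p H).map H.subtype) :
    Involves (Matrix.SpecialLinearGroup (Fin 2) (ZMod p)) ↥H := by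
  by_contra hcon
  apply hna
  apply mem_pCore_of_qStable hV hHV hf _ a haH hq
  apply qStable_of_sl2Free (dicksonHyp hp)
  intro hinv
  apply hcon
  haveI hVn : (V.subgroupOf (H ⊔ V)).Normal := normal_subgroupOf_sup hHV
  have hVXp : IsPGroup p (V.subgroupOf (H ⊔ V)) :=
    (isPGroup_of_ea hV).comap_of_injective _ (H ⊔ V).subtype_injective
  exact involves_of_hom_surjective _ (surjective_to_quot hHV) (involves_sl2_quotient _ hVXp hinv)

/-- `p`-solvable, not linearly `p`-stable ⇒ `p ≤ 3`. -/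
theorem lt_five_of_not_mem_pCore [Finite G] (hV : Cfsg.IsElementaryAbelian p V)
    (hHV : H ≤ Subgroup.normalizer (V : Set G))
    (hf : H ⊓ Subgroup.centralizer (V : Set G) = ⊥) (hsep : Cfsg.IsPSolvable p H) (a : G) (haH : a ∈ H)
    (hq : ⁅⁅V, Subgroup.zpowers a⁆, Subgroup.zpowers a⁆ = ⊥)
    (hna : a ∉ (Cfsg.pCore p H).map H.subtype) : p < 5 := by
  by_contra hcon
  apply hna
  apply mem_pCore_of_qStable hV hHV hf _ a haH hq
  apply qStable_of_isPSolvable (by omega)
  haveI hVn : (V.subgroupOf (H ⊔ V)).Normal := normal_subgroupOf_sup hHV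
  have hVXp : IsPGroup p (V.subgroupOf (H ⊔ V)) :=
    (isPGroup_of_ea hV).comap_of_injective _ (H ⊔ V).subtype_injective
  apply isPSolvable_of_extension (V.subgroupOf (H ⊔ V)) (Or.inl (IsPGroup.iff_card.1 hVXp))
  exact Cfsg.Agent.Lib.Helper69.isPSolvable_of_surj _ (surjective_to_quot hHV) hsep

end

end Cfsg.Agent.Lib.Helper11
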