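import Mathlib

/-! Two square-zero elements `a`, `b` of a ring with `ab + ba` an invertible "scalar" give a copy of `M₂(K)` (helper11) -/

set_option autoImplicit false
set_option linter.unusedSimpArgs false

namespace Cfsg.Agent.Lib.Helper11

open Matrix

section

variable {K R : Type*} [Field K] [Ring R] (ι : K →+* R) (a b : R) (d : K)

/-- the map `M₂(K) → R` attached to the matrix units `d ab, d a, b, d ba`. -/
def psiFun (m : Matrix (Fin 2) (Fin 2) K) : R :=
  ι (m 0 0) * (ι d * (a * b)) + ι (m 0 1) * (ι d * a) + ι (m 1 0) * b + ι (m 1 1) * (ι d * (b * a))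

variable {ι a b d}

theorem psiFun_mul (haa : a * a = 0) (hbb : b * b = 0) (hιa : ∀ k, ι k * a = a * ι k)
    (hιb : ∀ k, ι k * b = b * ι k) (hd : ι d * (a * b + b * a) = 1)
    (m n : Matrix (Fin 2) (Fin 2) K) : psiFun ι a b d (m * n) = psiFun ι a b d m * psiFun ι a b d n := by
  have ha' : ∀ (k : K) (w : R), a * (ι k * w) = ι k * (a * w) := by
    intro k w; rw [← mul_assoc, ← hιa, mul_assoc]
  have hb' : ∀ (k : K) (w : R), b * (ι k * w) = ι k * (b * w) := by
    intro k w; rw [← mul_assoc, ← hιb, mul_assoc]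
  have ha'' : ∀ (k : K), a * ι k = ι k * a := fun k => (hιa k).symm
  have hb'' : ∀ (k : K), b * ι k = ι k * b := fun k => (hιb k).symm
  have haa' : ∀ w : R, a * (a * w) = 0 := by intro w; rw [← mul_assoc, haa, zero_mul]
  have hbb' : ∀ w : R, b * (b * w) = 0 := by intro w; rw [← mul_assoc, hbb, zero_mul]
  have h1 : ι d * (a * (b * a)) = a := by
    have : a * (b * a) = (a * b + b * a) * a := by
      rw [add_mul, mul_assoc, mul_assoc b a a, haa, mul_zero, add_zero]
    rw [this, ← mul_assoc, hd, one_mul]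
  have h2 : ι d * (b * (a * b)) = b := by
    have : b * (a * b) = (a * b + b * a) * b := by
      rw [add_mul, mul_assoc, hbb, mul_zero, zero_add, mul_assoc]
    rw [this, ← mul_assoc, hd, one_mul]
  have h1' : ∀ w : R, ι d * (a * (b * (a * w))) = a * w := by
    intro w
    rw [← mul_assoc b a w, ← mul_assoc a (b * a) w, ← mul_assoc, h1]
  have h2' : ∀ w : R, ι d * (b * (a * (b * w))) = b * w := by
    intro w
    rw [← mul_assoc a b w, ← mul_assoc b (a * b) w, ← mul_assoc, h2]
  have hι : ∀ (k l : K) (w : R), ι k * (ι l * w) = ι (k * l) * w := by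
    intro k l w; rw [map_mul, mul_assoc]
  -- the sixteen products
  have key : ∀ (s t : K) (E E' : R), (∀ k, E * ι k = ι k * E) → (ι s * E) * (ι t * E') = ι (s * t) * (E * E') := by
    intro s t E E' hE
    rw [mul_assoc, ← mul_assoc E, hE, mul_assoc, ← mul_assoc, ← map_mul]
  have c11 : ∀ k, (ι d * (a * b)) * ι k = ι k * (ι d * (a * b)) := by
    intro k
    rw [mul_assoc, mul_assoc, hb'', ha', hι, hι, mul_comm]
  have c12 : ∀ k, (ι d * a) * ι k = ι k * (ι d * a) := by
    intro k
    rw [mul_assoc, ha'', ← mul_assoc, ← mul_assoc, ← map_mul, ← map_mul, mul_comm]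
  have c22 : ∀ k, (ι d * (b * a)) * ι k = ι k * (ι d * (b * a)) := by
    intro k
    rw [mul_assoc, mul_assoc, ha'', hb', hι, hι, mul_comm]
  have e1111 : (ι d * (a * b)) * (ι d * (a * b)) = ι d * (a * b) := by
    simp only [mul_assoc, ha', hb', h1']
  have e1112 : (ι d * (a * b)) * (ι d * a) = ι d * a := by
    simp only [mul_assoc, ha', hb', h1]
  have e1121 : (ι d * (a * b)) * b = 0 := by
    simp only [mul_assoc, hbb, mul_zero]
  have e1122 : (ι d * (a * b)) * (ι d * (b * a)) = 0 := by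
    simp only [mul_assoc, ha', hb', hbb', mul_zero]
  have e1211 : (ι d * a) * (ι d * (a * b)) = 0 := by
    simp only [mul_assoc, ha', hb', haa', mul_zero]
  have e1212 : (ι d * a) * (ι d * a) = 0 := by
    simp only [mul_assoc, ha', hb', haa, mul_zero]
  have e1221 : (ι d * a) * b = ι d * (a * b) := by
    simp only [mul_assoc]
  have e1222 : (ι d * a) * (ι d * (b * a)) = ι d * a := by
    simp only [mul_assoc, ha', hb', h1]
  have e2111 : b * (ι d * (a * b)) = b := by
    simp only [hb', h2]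
  have e2112 : b * (ι d * a) = ι d * (b * a) := by
    simp only [hb']
  have e2122 : b * (ι d * (b * a)) = 0 := by
    simp only [hb', hbb', mul_zero]
  have e2211 : (ι d * (b * a)) * (ι d * (a * b)) = 0 := by
    simp only [mul_assoc, ha', hb', haa', mul_zero]
  have e2212 : (ι d * (b * a)) * (ι d * a) = 0 := by
    simp only [mul_assoc, ha', hb', haa, mul_zero]
  have e2221 : (ι d * (b * a)) * b = b := by
    simp only [mul_assoc, h2]
  have e2222 : (ι d * (b * a)) * (ι d * (b * a)) = ι d * (b * a) := by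
    simp only [mul_assoc, ha', hb', h2']
  unfold psiFun
  simp only [Matrix.mul_apply, Fin.sum_univ_two, map_add, add_mul, mul_add]
  rw [key _ _ _ _ c11, key _ _ _ _ c11, key _ _ _ _ c11, key _ _ _ _ c11,
    key _ _ _ _ c12, key _ _ _ _ c12, key _ _ _ _ c12, key _ _ _ _ c12,
    key _ _ _ _ hb'', key _ _ _ _ hb'', key _ _ _ _ hb'', key _ _ _ _ hb'',
    key _ _ _ _ c22, key _ _ _ _ c22, key _ _ _ _ c22, key _ _ _ _ c22]
  simp only [e1111, e1112, e1121, e1122, e1211, e1212, e1221, e1222, e2111, e2112, hbb, e2122, e2211, e2212,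
    e2221, e2222, mul_zero, add_zero, zero_add]
  abel

/-- the ring homomorphism `M₂(K) → R`. -/
def psi (haa : a * a = 0) (hbb : b * b = 0) (hιa : ∀ k, ι k * a = a * ι k)
    (hιb : ∀ k, ι k * b = b * ι k) (hd : ι d * (a * b + b * a) = 1) : Matrix (Fin 2) (Fin 2) K →+* R where
  toFun := psiFun ι a b d
  map_one' := by
    unfold psiFun
    simp only [Matrix.one_apply_eq, Matrix.one_apply_ne (show (0 : Fin 2) ≠ 1 by decide),
      Matrix.one_apply_ne (show (1 : Fin 2) ≠ 0 by decide), map_one, map_zero, one_mul, zero_mul, add_zero]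
    rw [← mul_add, hd]
  map_mul' := psiFun_mul haa hbb hιa hιb hd
  map_zero' := by
    unfold psiFun
    simp
  map_add' := by
    intro m n
    unfold psiFun
    simp only [Matrix.add_apply, map_add, add_mul]
    abel

theorem psi_apply (haa : a * a = 0) (hbb : b * b = 0) (hιa : ∀ k, ι k * a = a * ι k)
    (hιb : ∀ k, ι k * b = b * ι k) (hd : ι d * (a * b + b * a) = 1) (m : Matrix (Fin 2) (Fin 2) K) :
    psi haa hbb hιa hιb hd m = ι (m 0 0) * (ι d * (a * b)) + ι (m 0 1) * (ι d * a) + ι (m 1 0) * b +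
      ι (m 1 1) * (ι d * (b * a)) := rfl

/-- **Lemma A.** -/
theorem exists_psi [Nontrivial R] (haa : a * a = 0) (hbb : b * b = 0) (hιa : ∀ k, ι k * a = a * ι k)
    (hιb : ∀ k, ι k * b = b * ι k) (c : K) (hc0 : c ≠ 0) (hc : ι c = a * b + b * a) :
    ∃ ψ : Matrix (Fin 2) (Fin 2) K →+* R, Function.Injective ψ ∧ ψ !![0, c; 0, 0] = a ∧ ψ !![0, 0; 1, 0] = b := by
  have hd : ι c⁻¹ * (a * b + b * a) = 1 := by
    rw [← hc, ← map_mul, inv_mul_cancel₀ hc0, map_one]
  refine ⟨psi haa hbb hιa hιb hd, RingHom.injective _, ?_, ?_⟩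
  · rw [psi_apply]
    simp only [Matrix.of_apply, Matrix.cons_val', Matrix.cons_val_zero, Matrix.cons_val_one,
      Matrix.cons_val_fin_one, map_zero, zero_mul, zero_add, add_zero]
    rw [← mul_assoc, ← map_mul, mul_inv_cancel₀ hc0, map_one, one_mul]
  · rw [psi_apply]
    simp only [Matrix.of_apply, Matrix.cons_val', Matrix.cons_val_zero, Matrix.cons_val_one,
      Matrix.cons_val_fin_one, map_zero, zero_mul, zero_add, add_zero, map_one, one_mul]

end

universe u

/-- **Lemma B.** -/
theorem exists_field_psi {R : Type u} [Ring R] [Finite R] {p : ℕ} [hp : Fact p.Prime] (hchar : (p : R) = 0)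
    {a b : R} (haa : a * a = 0) (hbb : b * b = 0) (ha : a ≠ 0)
    (hcancel : ∀ z ∈ Subring.centralizer ({a, b} : Set R), z ≠ 0 → ∀ w : R, z * w = 0 → w = 0)
    (hker : ∀ w : R, a * w = 0 → b * w = 0 → w = 0) :
    ∃ (K : Type u) (_ : Field K) (_ : Fintype K) (_ : CharP K p) (c : K)
      (ψ : Matrix (Fin 2) (Fin 2) K →+* R),
      Function.Injective ψ ∧ c ≠ 0 ∧ ψ !![0, c; 0, 0] = a ∧ ψ !![0, 0; 1, 0] = b := by
  classical
  have hnt : Nontrivial R := ⟨a, 0, ha⟩
  set C := Subring.centralizer ({a, b} : Set R) with hC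
  set Z := Subring.center ↥C with hZ
  let ι₀ : ↥Z →+* R := C.subtype.comp Z.subtype
  have hι₀ : Function.Injective ι₀ := C.subtype_injective.comp Z.subtype_injective
  have hfin : Finite ↥Z := Finite.of_injective ι₀ hι₀
  have hmemC : ∀ k : ↥Z, ι₀ k ∈ C := fun k => (k : ↥C).2
  have hnzd : NoZeroDivisors ↥Z := by
    constructor
    intro x y hxy
    by_cases hx : x = 0
    · exact Or.inl hx
    · right
      apply hι₀
      rw [map_zero]
      apply hcancel (ι₀ x) (hmemC x)
      · intro h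
        exact hx (hι₀ (by rw [h, map_zero]))
      · rw [← map_mul, hxy, map_zero]
  have hntZ : Nontrivial ↥Z := ⟨1, 0, fun h => by
    have := congrArg ι₀ h
    rw [map_one, map_zero] at this
    exact one_ne_zero this⟩
  have hdom : IsDomain ↥Z := NoZeroDivisors.to_isDomain _
  have hft : Fintype ↥Z := Fintype.ofFinite _
  let F : Field ↥Z := Fintype.fieldOfDomain ↥Z
  have hcomm : ∀ k : ↥Z, ι₀ k * a = a * ι₀ k ∧ ι₀ k * b = b * ι₀ k := by
    intro k
    have h := Subring.mem_centralizer_iff.1 (hmemC k)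
    exact ⟨(h a (by simp)).symm, (h b (by simp)).symm⟩
  have hcC : a * b + b * a ∈ C := by
    rw [hC, Subring.mem_centralizer_iff]
    intro g hg
    rcases hg with rfl | hg
    · rw [mul_add, add_mul, ← mul_assoc, haa, zero_mul, zero_add, mul_assoc b g g, haa, mul_zero, add_zero,
        mul_assoc]
    · rw [Set.mem_singleton_iff] at hg
      subst hg
      rw [mul_add, add_mul, ← mul_assoc g g a, hbb, zero_mul, add_zero, mul_assoc a g g, hbb, mul_zero,
        zero_add, mul_assoc]
  have hcZ : (⟨a * b + b * a, hcC⟩ : ↥C) ∈ Z := by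
    rw [hZ, Subring.mem_center_iff]
    intro g
    apply Subtype.ext
    have h := Subring.mem_centralizer_iff.1 g.2
    have h1 := h a (by simp)
    have h2 := h b (by simp)
    change (g : R) * (a * b + b * a) = (a * b + b * a) * g
    rw [mul_add, add_mul, ← mul_assoc, ← h1, mul_assoc, ← h2, ← mul_assoc, ← mul_assoc, ← h2, mul_assoc b,
      ← h1, mul_assoc, mul_assoc]
  let c : ↥Z := ⟨⟨a * b + b * a, hcC⟩, hcZ⟩
  have hιc : ι₀ c = a * b + b * a := rfl
  have hc0 : c ≠ 0 := by
    intro h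
    have h0 : a * b + b * a = 0 := by rw [← hιc, h, map_zero]
    have hba : b * a = - (a * b) := by rw [eq_neg_iff_add_eq_zero, add_comm]; exact h0
    have hab : a * b = 0 := by
      apply hker
      · rw [← mul_assoc, haa, zero_mul]
      · rw [← mul_assoc, hba, neg_mul, mul_assoc, hbb, mul_zero, neg_zero]
    apply ha
    apply hker
    · exact haa
    · rw [hba, hab, neg_zero]
  have hpZ : ((p : ℕ) : ↥Z) = 0 := by
    apply hι₀
    rw [map_natCast, hchar, map_zero]
  have hCP : CharP ↥Z p := (CharP.charP_iff_prime_eq_zero hp.out).2 hpZ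
  obtain ⟨ψ, h1, h2, h3⟩ := @exists_psi ↥Z R F _ ι₀ a b _ haa hbb (fun k => (hcomm k).1) (fun k => (hcomm k).2)
    c hc0 hιc
  exact ⟨↥Z, F, hft, hCP, c, ψ, h1, hc0, h2, h3⟩

end Cfsg.Agent.Lib.Helper11
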