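import Cfsg.Agent.Lib.Helper11.MatUnits
import Cfsg.Agent.Lib.Helper34.PStable2

/-! An irreducible group generated by two quadratic elements is a subgroup of `SL₂(K)` (helper11) -/

set_option autoImplicit false

namespace Cfsg.Agent.Lib.Helper11

open Cfsg Cfsg.Agent.Lib.Lead Cfsg.Agent.Lib.Helper34 Matrix

universe u

theorem exists_subgroup_equiv {G₁ G₂ G₃ : Type*} [Group G₁] [Group G₂] [Group G₃] (f : G₁ →* G₃)
    (hf : Function.Injective f) (g : G₂ →* G₃) (hg : Function.Injective g) (K : Subgroup G₂)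
    (h : K.map g ≤ f.range) : ∃ K' : Subgroup G₁, Nonempty (K' ≃* K) ∧ K'.map f = K.map g := by
  refine ⟨(K.map g).comap f, ⟨?_⟩, Subgroup.map_comap_eq_self h⟩
  exact (((K.map g).comap f).equivMapOfInjective f hf).trans
    ((MulEquiv.subgroupCongr (Subgroup.map_comap_eq_self h)).trans (K.equivMapOfInjective g hg).symm)

/-- the embedding theorem -/
theorem exists_embedding {A : Type u} [CommGroup A] [Finite A] [Nontrivial A] {p : ℕ} [hp : Fact p.Prime]
    (hexp : ∀ a : A, a ^ p = 1)
    (x y : MulAut A) (hx : ∀ a, x (x a * a⁻¹) = x a * a⁻¹) (hy : ∀ a, y (y a * a⁻¹) = y a * a⁻¹)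
    (hirr : ∀ B : Subgroup A, (∀ l ∈ Subgroup.closure {x, y}, ∀ b ∈ B, l b ∈ B) → B = ⊥ ∨ B = ⊤)
    (hx1 : x ≠ 1) :
    ∃ (K : Type u) (_ : Field K) (_ : Fintype K) (_ : CharP K p)
      (ψ : Matrix (Fin 2) (Fin 2) K →+* AddMonoid.End (Additive A))
      (θ : SpecialLinearGroup (Fin 2) K →* (AddMonoid.End (Additive A))ˣ)
      (H : Subgroup (SpecialLinearGroup (Fin 2) K)),
      Function.Injective ψ ∧ Function.Injective θ ∧
      (∀ g, ((θ g : (AddMonoid.End (Additive A))ˣ) : AddMonoid.End (Additive A)) = ψ (g : Matrix (Fin 2) (Fin 2) K)) ∧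
      H.map θ = (Subgroup.closure {x, y}).map (mulAutRep A) ∧ 1 < Nat.card (Sylow p H) := by
  classical
  have hrep := traceRep_of_quadratic_pair hexp x y hx hy hirr
  set R := AddMonoid.End (Additive A) with hR
  set a : R := mulAutToEnd A x - 1 with ha
  set b : R := mulAutToEnd A y - 1 with hb
  have hfinR : Finite R := Finite.of_injective (fun e : R => (e : Additive A → Additive A)) DFunLike.coe_injective
  have haa : a * a = 0 := mulAutToEnd_sub_one_sq x hx
  have hbb : b * b = 0 := mulAutToEnd_sub_one_sq y hy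
  have ha0 : a ≠ 0 := by
    intro h
    apply hx1
    apply mulAutToEnd_injective A
    rw [map_one]
    exact sub_eq_zero.1 h
  -- the common kernel
  let B : Subgroup A :=
    { carrier := {v | x v = v ∧ y v = v}
      one_mem' := ⟨map_one x, map_one y⟩
      mul_mem' := fun {v w} hv hw => ⟨by rw [map_mul, hv.1, hw.1], by rw [map_mul, hv.2, hw.2]⟩
      inv_mem' := fun {v} hv => ⟨by rw [map_inv, hv.1], by rw [map_inv, hv.2]⟩ }
  have hBfix : ∀ l ∈ Subgroup.closure {x, y}, ∀ v ∈ B, l v = v := by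
    intro l hl v hv
    induction hl using Subgroup.closure_induction with
    | mem l hl =>
      rcases hl with rfl | rfl
      · exact hv.1
      · exact hv.2
    | one => rfl
    | mul l₁ l₂ _ _ h₁ h₂ => rw [MulAut.mul_apply, h₂, h₁]
    | inv l _ h => rw [MulAut.inv_apply, MulEquiv.symm_apply_eq, h]
  have hBbot : B = ⊥ := by
    rcases hirr B (fun l hl v hv => by rw [hBfix l hl v hv]; exact hv) with h | h
    · exact h
    · exfalso
      apply hx1
      ext v
      have : v ∈ B := h ▸ Subgroup.mem_top v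
      exact this.1
  have hker : ∀ w : R, a * w = 0 → b * w = 0 → w = 0 := by
    intro w h1 h2
    ext v
    have h3 := DFunLike.congr_fun h1 v
    have h4 := DFunLike.congr_fun h2 v
    rw [end_mul_apply, ha, end_sub_apply, end_one_apply, mulAutToEnd_apply] at h3
    rw [end_mul_apply, hb, end_sub_apply, end_one_apply, mulAutToEnd_apply] at h4
    have h5 : (w v).toMul ∈ B := by
      constructor
      · exact congrArg Additive.toMul (sub_eq_zero.1 h3)
      · exact congrArg Additive.toMul (sub_eq_zero.1 h4)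
    rw [hBbot, Subgroup.mem_bot] at h5
    exact h5
  obtain ⟨K, iF, iFt, iC, c, ψ, hψ, hc0, hψa, hψb⟩ :=
    exists_field_psi (p := p) hrep.char haa hbb ha0 hrep.cancel hker
  let θ : SpecialLinearGroup (Fin 2) K →* Rˣ :=
    (ψ.toMonoidHom.comp SpecialLinearGroup.coeMonoidHom).toHomUnits
  have hθval : ∀ g, ((θ g : Rˣ) : R) = ψ (g : Matrix (Fin 2) (Fin 2) K) := fun g => rfl
  have hθ : Function.Injective θ := by
    intro g g' h
    apply SpecialLinearGroup.coeMonoidHom_injective
    apply hψ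
    have := congrArg Units.val h
    exact this
  let u : SpecialLinearGroup (Fin 2) K := ⟨!![1, c; 0, 1], by simp [Matrix.det_fin_two]⟩
  let l : SpecialLinearGroup (Fin 2) K := ⟨!![1, 0; 1, 1], by simp [Matrix.det_fin_two]⟩
  have hθu : θ u = mulAutRep A x := by
    apply Units.ext
    rw [hθval, mulAutRep_val]
    have : (u : Matrix (Fin 2) (Fin 2) K) = 1 + !![0, c; 0, 0] := by
      ext i j; fin_cases i <;> fin_cases j <;> simp [u]
    rw [this, map_add, map_one, hψa, ha]
    abel
  have hθl : θ l = mulAutRep A y := by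
    apply Units.ext
    rw [hθval, mulAutRep_val]
    have : (l : Matrix (Fin 2) (Fin 2) K) = 1 + !![0, 0; 1, 0] := by
      ext i j; fin_cases i <;> fin_cases j <;> simp [l]
    rw [this, map_add, map_one, hψb, hb]
    abel
  set H := Subgroup.closure {u, l} with hH
  have hmap : H.map θ = (Subgroup.closure {x, y}).map (mulAutRep A) := by
    rw [hH, MonoidHom.map_closure, MonoidHom.map_closure, Set.image_pair, Set.image_pair, hθu, hθl]
  refine ⟨K, iF, iFt, iC, ψ, θ, H, hψ, hθ, hθval, hmap, ?_⟩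
  by_contra hcard
  have hxp : ∀ (e : MulAut A), (∀ a, e (e a * a⁻¹) = e a * a⁻¹) → e ^ p = 1 := by
    intro e he
    ext a
    rw [mulAut_pow_apply_of_quadratic mul_comm e a (he a), hexp, mul_one]
    rfl
  have hup : u ^ p = 1 := by
    apply hθ
    rw [map_pow, hθu, ← map_pow, hxp x hx, map_one, map_one]
  have hlp : l ^ p = 1 := by
    apply hθ
    rw [map_pow, hθl, ← map_pow, hxp y hy, map_one, map_one]
  have hsub : Subsingleton (Sylow p H) := by
    have h1 : Nat.card (Sylow p H) ≤ 1 := not_lt.1 hcard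
    exact (Finite.card_le_one_iff_subsingleton).1 h1
  obtain ⟨P⟩ : Nonempty (Sylow p H) := inferInstance
  have hmemP : ∀ g : H, g ^ p = 1 → g ∈ P := by
    intro g hg
    have h1 : IsPGroup p (Subgroup.zpowers g) := by
      rintro ⟨z, hz⟩
      obtain ⟨k, rfl⟩ := Subgroup.mem_zpowers_iff.1 hz
      refine ⟨1, Subtype.ext ?_⟩
      change (g ^ k) ^ (p ^ 1) = 1
      rw [pow_one, ← zpow_natCast, ← _root_.zpow_mul, mul_comm, _root_.zpow_mul, zpow_natCast, hg, _root_.one_zpow]
    obtain ⟨P', hP'⟩ := h1.exists_le_sylow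
    rw [Subsingleton.elim P P']
    exact hP' (Subgroup.mem_zpowers g)
  have huH : u ∈ H := Subgroup.subset_closure (by simp)
  have hlH : l ∈ H := Subgroup.subset_closure (by simp)
  have hHP : H ≤ (P : Subgroup H).map H.subtype := by
    conv_lhs => rw [hH]
    rw [Subgroup.closure_le]
    rintro g (rfl | rfl)
    · exact ⟨⟨_, huH⟩, hmemP _ (Subtype.ext hup), rfl⟩
    · exact ⟨⟨_, hlH⟩, hmemP _ (Subtype.ext hlp), rfl⟩
  have hHp : IsPGroup p H := (P.2.map H.subtype).to_le hHP
  have hLp : ∀ d ∈ Subgroup.closure {x, y}, ∃ n : ℕ, d ^ (p ^ n) = 1 := by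
    intro d hd
    have h1 : mulAutRep A d ∈ H.map θ := by rw [hmap]; exact ⟨d, hd, rfl⟩
    obtain ⟨h, hh, hhd⟩ := h1
    obtain ⟨n, hn⟩ := hHp ⟨h, hh⟩
    refine ⟨n, ?_⟩
    apply mulAutRep_injective A
    rw [map_pow, ← hhd, ← map_pow, map_one]
    have : h ^ (p ^ n) = 1 := congrArg Subtype.val hn
    rw [this, map_one]
  have hA : IsPGroup p A := fun a => ⟨1, by rw [pow_one, hexp]⟩
  have hkerL := le_ker_of_irreducible hA (Subgroup.closure {x, y}).subtype
    (fun B hB => hirr B (fun l hl b hb => hB ⟨l, hl⟩ b hb)) ⊤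
    (by
      intro d _
      exact hLp d d.2)
  have hxL : x ∈ Subgroup.closure {x, y} := Subgroup.subset_closure (by simp)
  exact hx1 (MonoidHom.mem_ker.mp (hkerL (Subgroup.mem_top (⟨x, hxL⟩ : Subgroup.closure {x, y}))))

end Cfsg.Agent.Lib.Helper11
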