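import Cfsg.Agent.Lib.Helper11.SylowNormal
import Cfsg.Agent.Lib.Helper2.PGroupFrattini
import Cfsg.Prelude.Def_PLocal

set_option autoImplicit false

namespace Cfsg.Agent.Lib.Helper11

open Subgroup Cfsg
open scoped commutatorElement

variable {G : Type*} [Group G]

/-- regularity at level `n`. -/
def RegAt (p n : ℕ) (G : Type*) [Group G] : Prop :=
  ∀ a b : G, ∃ c ∈ powerClosure p n ⁅closure ({a, b} : Set G), closure ({a, b} : Set G)⁆,
    (a * b) ^ (p ^ n) = a ^ (p ^ n) * b ^ (p ^ n) * c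

theorem powerClosure_mono (p n : ℕ) {H K : Subgroup G} (h : H ≤ K) :
    powerClosure p n H ≤ powerClosure p n K :=
  closure_mono fun _ ⟨x, hx, e⟩ => ⟨x, h hx, e⟩

theorem powerClosure_le (p n : ℕ) (H : Subgroup G) : powerClosure p n H ≤ H := by
  unfold powerClosure
  rw [closure_le]
  rintro _ ⟨x, hx, rfl⟩
  exact pow_mem hx _

theorem pow_mem_powerClosure (p n : ℕ) {H : Subgroup G} {x : G} (hx : x ∈ H) :
    x ^ (p ^ n) ∈ powerClosure p n H := Subgroup.subset_closure ⟨x, hx, rfl⟩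

theorem mem_powerClosure_iff_of_mul {p n : ℕ} {H : Subgroup G}
    (hmul : ∀ x ∈ H, ∀ y ∈ H, ∃ z ∈ H, x ^ (p ^ n) * y ^ (p ^ n) = z ^ (p ^ n)) {g : G} :
    g ∈ powerClosure p n H ↔ ∃ x ∈ H, g = x ^ (p ^ n) := by
  constructor
  · intro hg
    unfold powerClosure at hg
    induction hg using closure_induction with
    | mem x hx => exact hx
    | one => exact ⟨1, one_mem _, by simp⟩
    | mul x y _ _ ihx ihy =>
      obtain ⟨a, ha, rfl⟩ := ihx
      obtain ⟨b, hb, rfl⟩ := ihy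
      obtain ⟨z, hz, e⟩ := hmul a ha b hb
      exact ⟨z, hz, e⟩
    | inv x _ ih =>
      obtain ⟨a, ha, rfl⟩ := ih
      exact ⟨a⁻¹, inv_mem ha, by simp⟩
  · rintro ⟨x, hx, rfl⟩
    exact pow_mem_powerClosure p n hx

theorem normalizer_le_normalizer_powerClosure [Finite G] (p n : ℕ) (H : Subgroup G) :
    normalizer (H : Set G) ≤ normalizer (powerClosure p n H : Set G) := by
  intro g hg
  unfold powerClosure
  apply mem_normalizer_closure_of_conj_mem
  rintro _ ⟨x, hx, rfl⟩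
  apply Subgroup.subset_closure
  exact ⟨g * x * g⁻¹, conj_mem_of_mem_normalizer hg hx, by rw [conj_pow]⟩

/-- a `p`-group generated by `t` and an element of its derived subgroup is generated by `t`. -/
theorem le_zpowers_of_closure_pair_eq [Finite G] {p : ℕ} [Fact p.Prime] {K : Subgroup G}
    (hK : IsPGroup p K) {t d : G} (ht : t ∈ K) (hd : d ∈ ⁅K, K⁆)
    (h : closure ({t, d} : Set G) = K) : K ≤ zpowers t := by
  have hdK : d ∈ K := commutator_le_self K hd
  have hd' : (⟨d, hdK⟩ : ↥K) ∈ _root_.commutator ↥K := by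
    have h1 : (_root_.commutator ↥K).map K.subtype = ⁅K, K⁆ := by
      rw [_root_.commutator_def, map_commutator, ← MonoidHom.range_eq_map, K.range_subtype]
    rw [← h1] at hd
    obtain ⟨y, hy, e⟩ := hd
    have : y = ⟨d, hdK⟩ := Subtype.ext e
    rwa [← this]
  have htop : closure ({⟨t, ht⟩, ⟨d, hdK⟩} : Set ↥K) = ⊤ := by
    apply map_injective K.subtype_injective
    rw [MonoidHom.map_closure, ← MonoidHom.range_eq_map, K.range_subtype, Set.image_pair]
    exact h
  have h2 : zpowers (⟨t, ht⟩ : ↥K) ⊔ frattini ↥K = ⊤ := by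
    rw [eq_top_iff, ← htop, closure_le]
    rintro x (rfl | hx)
    · exact le_sup_left (α := Subgroup ↥K) (mem_zpowers _)
    · rw [Set.mem_singleton_iff.1 hx]
      exact le_sup_right (α := Subgroup ↥K) (Cfsg.Agent.Lib.Helper2.commutator_le_frattini hK hd')
  have h3 := frattini_nongenerating h2
  intro k hk
  have h4 : (⟨k, hk⟩ : ↥K) ∈ zpowers (⟨t, ht⟩ : ↥K) := by rw [h3]; exact mem_top _
  obtain ⟨m, hm⟩ := mem_zpowers_iff.1 h4
  rw [mem_zpowers_iff]
  exact ⟨m, by simpa using congrArg Subtype.val hm⟩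

theorem pair_le {H : Subgroup G} {x y : G} (hx : x ∈ H) (hy : y ∈ H) :
    closure ({x, y} : Set G) ≤ H := by
  rw [closure_le]
  rintro z (rfl | hz)
  · exact hx
  · rw [Set.mem_singleton_iff.1 hz]; exact hy

theorem left_mem_pair (x y : G) : x ∈ closure ({x, y} : Set G) := Subgroup.subset_closure (by simp)
theorem right_mem_pair (x y : G) : y ∈ closure ({x, y} : Set G) := Subgroup.subset_closure (by simp)

/-- in a group regular at level `n`, a product of two `p^n`-th powers is a `p^n`-th power. -/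
theorem exists_pow_mul_pow_aux [Finite G] {p : ℕ} [Fact p.Prime] (hG : IsPGroup p G) (n : ℕ)
    (hreg : RegAt p n G) : ∀ m : ℕ, ∀ x y : G, Nat.card (closure ({x, y} : Set G)) ≤ m →
      ∃ z ∈ closure ({x, y} : Set G), x ^ (p ^ n) * y ^ (p ^ n) = z ^ (p ^ n) := by
  intro m
  induction m with
  | zero =>
    intro x y h
    have := Nat.card_pos (α := closure ({x, y} : Set G))
    omega
  | succ m ih =>
    intro x y hcard
    set K := closure ({x, y} : Set G) with hK
    have hKp : IsPGroup p K := hG.to_subgroup K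
    by_cases hKbot : K = ⊥
    · have hx : x = 1 := by
        have := left_mem_pair x y
        rw [← hK, hKbot, mem_bot] at this; exact this
      have hy : y = 1 := by
        have := right_mem_pair x y
        rw [← hK, hKbot, mem_bot] at this; exact this
      exact ⟨1, one_mem _, by simp [hx, hy]⟩
    have hlt : Nat.card (⁅K, K⁆ : Subgroup G) < Nat.card K := card_commutator_self_lt hKp hKbot
    obtain ⟨c, hc, hceq⟩ := hreg x y
    rw [← hK] at hc
    have hmul : ∀ u ∈ ⁅K, K⁆, ∀ v ∈ ⁅K, K⁆, ∃ z ∈ ⁅K, K⁆, u ^ (p ^ n) * v ^ (p ^ n) = z ^ (p ^ n) := by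
      intro u hu v hv
      have hle := pair_le hu hv
      obtain ⟨z, hz, e⟩ := ih u v (by have := card_le_of_le hle; omega)
      exact ⟨z, hle hz, e⟩
    obtain ⟨d, hd, hde⟩ := (mem_powerClosure_iff_of_mul hmul).1 (inv_mem hc)
    have h1 : x ^ (p ^ n) * y ^ (p ^ n) = (x * y) ^ (p ^ n) * d ^ (p ^ n) := by
      rw [hceq, ← hde]; group
    have hxyK : x * y ∈ K := mul_mem (left_mem_pair x y) (right_mem_pair x y)
    have hdK : d ∈ K := commutator_le_self K hd
    have hle : closure ({x * y, d} : Set G) ≤ K := pair_le hxyK hdK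
    by_cases heq : closure ({x * y, d} : Set G) = K
    · have hcyc := le_zpowers_of_closure_pair_eq hKp hxyK hd heq
      have hcomm : Commute x y := by
        obtain ⟨i, hi⟩ := mem_zpowers_iff.1 (hcyc (left_mem_pair x y))
        obtain ⟨j, hj⟩ := mem_zpowers_iff.1 (hcyc (right_mem_pair x y))
        have : Commute ((x * y) ^ i) ((x * y) ^ j) := (Commute.refl _).zpow_zpow i j
        rwa [hi, hj] at this
      exact ⟨x * y, hxyK, (hcomm.mul_pow _).symm⟩
    · have hlt2 : Nat.card (closure ({x * y, d} : Set G)) < Nat.card K := by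
        refine lt_of_le_of_ne (card_le_of_le hle) ?_
        intro he
        exact heq (eq_of_le_of_card_ge hle he.ge)
      obtain ⟨z, hz, e⟩ := ih (x * y) d (by omega)
      exact ⟨z, hle hz, by rw [h1, e]⟩

theorem exists_pow_mul_pow [Finite G] {p : ℕ} [Fact p.Prime] (hG : IsPGroup p G) {n : ℕ}
    (hreg : RegAt p n G) (H : Subgroup G) :
    ∀ x ∈ H, ∀ y ∈ H, ∃ z ∈ H, x ^ (p ^ n) * y ^ (p ^ n) = z ^ (p ^ n) := by
  intro x hx y hy
  obtain ⟨z, hz, e⟩ := exists_pow_mul_pow_aux hG n hreg _ x y le_rfl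
  exact ⟨z, pair_le hx hy hz, e⟩

theorem mem_powerClosure_iff [Finite G] {p : ℕ} [Fact p.Prime] (hG : IsPGroup p G) {n : ℕ}
    (hreg : RegAt p n G) (H : Subgroup G) {g : G} :
    g ∈ powerClosure p n H ↔ ∃ x ∈ H, g = x ^ (p ^ n) :=
  mem_powerClosure_iff_of_mul (exists_pow_mul_pow hG hreg H)

theorem commutator_powerClosure_le [Finite G] {p n : ℕ} (hreg : RegAt p n G) (H : Subgroup G) :
    ⁅powerClosure p n H, H⁆ ≤ powerClosure p n ⁅H, H⁆ := by
  have hnorm : H ≤ normalizer (powerClosure p n ⁅H, H⁆ : Set G) := by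
    refine le_trans ?_ (normalizer_le_normalizer_powerClosure p n ⁅H, H⁆)
    intro h hh
    apply mem_normalizer_of_conj_mem
    intro a ha
    have h1 : ⁅h, a⁆ ∈ ⁅H, H⁆ := commutator_mem_commutator hh (commutator_le_self H ha)
    have e : h * a * h⁻¹ = ⁅h, a⁆ * a := by rw [commutatorElement_def]; group
    rw [e]; exact mul_mem h1 ha
  unfold powerClosure
  apply commutator_closure_left_le
  · rintro _ ⟨x, hx, rfl⟩
    exact hnorm (pow_mem hx _)
  · rintro _ ⟨x, hx, rfl⟩ g hg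
    -- `[x^q, g] = x^q (g x⁻¹ g⁻¹)^q`
    obtain ⟨c, hc, hceq⟩ := hreg x (⁅x⁻¹, g⁆)
    have hcomm : ⁅x⁻¹, g⁆ ∈ ⁅H, H⁆ := commutator_mem_commutator (inv_mem hx) hg
    have hle : closure ({x, ⁅x⁻¹, g⁆} : Set G) ≤ H := pair_le hx (commutator_le_self H hcomm)
    have hc' : c ∈ powerClosure p n ⁅H, H⁆ := powerClosure_mono p n (commutator_mono hle hle) hc
    have e1 : x * ⁅x⁻¹, g⁆ = g * x * g⁻¹ := by rw [commutatorElement_def]; group
    rw [e1, conj_pow] at hceq
    -- `g x^q g⁻¹ = x^q [x⁻¹,g]^q c`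
    have e2 : ⁅x ^ (p ^ n), g⁆ =
        x ^ (p ^ n) * (⁅x⁻¹, g⁆ ^ (p ^ n) * c)⁻¹ * (x ^ (p ^ n))⁻¹ := by
      have e3 : ⁅x ^ (p ^ n), g⁆ = x ^ (p ^ n) * (g * x ^ (p ^ n) * g⁻¹)⁻¹ := by
        rw [commutatorElement_def]; group
      rw [e3, hceq]; group
    rw [e2]
    exact conj_mem_of_mem_normalizer (hnorm (pow_mem hx _))
      (inv_mem (mul_mem (pow_mem_powerClosure p n hcomm) hc'))

theorem commutator_powerClosure_self_le [Finite G] {p n : ℕ} (hreg : RegAt p n G) (H : Subgroup G) :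
    ⁅powerClosure p n H, powerClosure p n H⁆ ≤ powerClosure p n ⁅H, H⁆ :=
  (commutator_mono le_rfl (powerClosure_le p n H)).trans (commutator_powerClosure_le hreg H)

theorem regAt_zero (p : ℕ) (G : Type*) [Group G] : RegAt p 0 G := by
  intro a b
  exact ⟨1, one_mem _, by simp⟩

/-- regularity at levels `1` and `n` gives regularity at level `n + 1`. -/
theorem RegAt.succ [Finite G] {p : ℕ} [Fact p.Prime] (hG : IsPGroup p G) {n : ℕ}
    (h1 : RegAt p 1 G) (hn : RegAt p n G) : RegAt p (n + 1) G := by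
  intro a b
  set K := closure ({a, b} : Set G) with hK
  have haK : a ∈ K := left_mem_pair a b
  have hbK : b ∈ K := right_mem_pair a b
  -- raising elements of `℧_n(K')` to the `p`-th power
  have hup : ∀ w ∈ powerClosure p n ⁅K, K⁆, w ^ p ∈ powerClosure p (n + 1) ⁅K, K⁆ := by
    intro w hw
    obtain ⟨v, hv, rfl⟩ := (mem_powerClosure_iff hG hn _).1 hw
    rw [← pow_mul, ← pow_succ]
    exact pow_mem_powerClosure p (n + 1) hv
  have hup1 : ∀ L : Subgroup G, L ≤ powerClosure p n K → ∀ e ∈ powerClosure p 1 ⁅L, L⁆,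
      e ∈ powerClosure p (n + 1) ⁅K, K⁆ := by
    intro L hL e he
    obtain ⟨v, hv, rfl⟩ := (mem_powerClosure_iff hG h1 _).1 he
    rw [pow_one]
    exact hup v (commutator_powerClosure_self_le hn K (commutator_mono hL hL hv))
  obtain ⟨c, hc, hceq⟩ := hn a b
  rw [← hK] at hc
  set u := a ^ (p ^ n) with hu
  set v := b ^ (p ^ n) with hv
  have huK : u ∈ powerClosure p n K := pow_mem_powerClosure p n haK
  have hvK : v ∈ powerClosure p n K := pow_mem_powerClosure p n hbK
  have hcK : c ∈ powerClosure p n K := powerClosure_mono p n (commutator_le_self K) hc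
  obtain ⟨e₁, he₁, h₁⟩ := h1 (u * v) c
  obtain ⟨e₂, he₂, h₂⟩ := h1 u v
  rw [pow_one] at h₁ h₂
  refine ⟨e₂ * c ^ p * e₁, ?_, ?_⟩
  · exact mul_mem (mul_mem (hup1 _ (pair_le huK hvK) e₂ he₂) (hup c hc))
      (hup1 _ (pair_le (mul_mem huK hvK) hcK) e₁ he₁)
  · rw [pow_succ, pow_mul, hceq, h₁, h₂, pow_mul, pow_mul, ← hu, ← hv]
    simp only [mul_assoc]

theorem regAt_of_one [Finite G] {p : ℕ} [Fact p.Prime] (hG : IsPGroup p G)
    (h1 : RegAt p 1 G) (n : ℕ) : RegAt p n G := by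
  induction n with
  | zero => exact regAt_zero p G
  | succ n ih => exact RegAt.succ hG h1 ih

theorem isRegularPGroup_iff (p : ℕ) (G : Type*) [Group G] :
    IsRegularPGroup p G ↔ IsPGroup p G ∧ ∀ n, RegAt p n G := by
  unfold IsRegularPGroup RegAt
  exact and_congr_right fun _ => ⟨fun h n a b => h a b n, fun h a b n => h n a b⟩

/-- `℧₁(L) < L` for a nontrivial `p`-group. -/
theorem powerClosure_one_lt [Finite G] {p : ℕ} [Fact p.Prime] {L : Subgroup G} (hL : IsPGroup p L)
    (hne : L ≠ ⊥) : powerClosure p 1 L < L := by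
  refine lt_of_le_of_ne (powerClosure_le p 1 L) ?_
  intro heq
  have : Nontrivial ↥L := (nontrivial_iff_ne_bot L).2 hne
  obtain ⟨M, hM⟩ : ∃ M : Subgroup ↥L, IsCoatom M := by
    obtain h | ⟨M, hM, -⟩ := eq_top_or_exists_le_coatom (⊥ : Subgroup ↥L)
    · exact absurd h bot_ne_top
    · exact ⟨M, hM⟩
  have h1 : powerClosure p 1 L ≤ M.map L.subtype := by
    unfold powerClosure
    rw [closure_le]
    rintro _ ⟨x, hx, rfl⟩
    refine ⟨⟨x, hx⟩ ^ p, frattini_le_coatom hM (Cfsg.Agent.Lib.Helper2.pow_p_mem_frattini hL _), ?_⟩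
    simp
  rw [heq] at h1
  apply hM.1
  rw [eq_top_iff]
  intro x _
  obtain ⟨y, hy, e⟩ := h1 x.2
  have : y = x := Subtype.ext e
  rwa [← this]

end Cfsg.Agent.Lib.Helper11
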