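import Cfsg.Agent.Lib.Helper11.QuadSL2
import Cfsg.Agent.Lib.Helper11.SL2Lemmas
import Cfsg.Agent.Lib.Helper33.Sections

/-! `SL₂(p)`-free groups are `p`-stable (modulo Dickson's theorem S0274, taken as a hypothesis) (helper11) -/

set_option autoImplicit false

namespace Cfsg.Agent.Lib.Helper11

open Cfsg Cfsg.Agent.Lib.Lead Cfsg.Agent.Lib.Helper34 Cfsg.Agent.Lib.Helper33 Matrix

universe u

/-- the statement of S0274 in universe `u`. -/
def DicksonHyp (p : ℕ) : Prop :=
  ∀ (F : Type u) [Field F] [Fintype F] [CharP F p] (H : Subgroup (Matrix.SpecialLinearGroup (Fin 2) F)),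
    1 < Nat.card (Sylow p H) →
      ∃ K : Subgroup (Matrix.SpecialLinearGroup (Fin 2) F), K ≤ H ∧
        Nonempty (K ≃* Matrix.SpecialLinearGroup (Fin 2) (ZMod p))

theorem involves_of_hom_surjective {X Y S : Type*} [Group X] [Group Y] [Group S] (f : X →* Y)
    (hf : Function.Surjective f) (h : Involves S Y) : Involves S X :=
  involves_trans h (involves_of_surjective ⊤ (f.comp (Subgroup.topEquiv (G := X)).toMonoidHom)
    (hf.comp (Subgroup.topEquiv (G := X)).surjective))

/-- a normal `p`-subgroup does not matter for the involvement of `SL₂(p)`. -/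
theorem involves_sl2_quotient {X : Type*} [Group X] {p : ℕ} [Fact p.Prime] (N : Subgroup X) [hN : N.Normal]
    (hNp : IsPGroup p N) (h : Involves (Matrix.SpecialLinearGroup (Fin 2) (ZMod p)) X) :
    Involves (Matrix.SpecialLinearGroup (Fin 2) (ZMod p)) (X ⧸ N) := by
  obtain ⟨K, f, hf⟩ := exists_surjective_of_involves h
  have hn : ((N.subgroupOf K).map f).Normal := (hN.subgroupOf K).map f hf
  have hp : IsPGroup p ((N.subgroupOf K).map f) := (hNp.comap_of_injective _ K.subtype_injective).map f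
  have hbot := sl2_normal_pGroup_eq_bot _ hp
  set π := QuotientGroup.mk' N with hπ
  let πK : ↥K →* ↥(K.map π) := π.subgroupMap K
  have hπK : Function.Surjective πK := π.subgroupMap_surjective K
  have hker : πK.ker ≤ f.ker := by
    intro k hk
    have h1 : π (k : X) = 1 := congrArg Subtype.val (MonoidHom.mem_ker.1 hk)
    have h2 : (k : X) ∈ N := (QuotientGroup.eq_one_iff _).1 h1
    have h3 : f k ∈ (N.subgroupOf K).map f := ⟨k, Subgroup.mem_subgroupOf.2 h2, rfl⟩
    rw [hbot, Subgroup.mem_bot] at h3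
    exact h3
  refine involves_of_surjective (K.map π)
    ((QuotientGroup.lift πK.ker f hker).comp (QuotientGroup.quotientKerEquivOfSurjective πK hπK).symm.toMonoidHom) ?_
  intro s
  obtain ⟨k, rfl⟩ := hf s
  refine ⟨πK k, ?_⟩
  have : (QuotientGroup.quotientKerEquivOfSurjective πK hπK).symm (πK k) = (k : ↥K ⧸ πK.ker) := by
    rw [MulEquiv.symm_apply_eq]; rfl
  rw [MonoidHom.comp_apply]
  change (QuotientGroup.lift πK.ker f hker) ((QuotientGroup.quotientKerEquivOfSurjective πK hπK).symm (πK k)) = f k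
  rw [this]
  rfl

/-- an irreducible group generated by two quadratic elements (not both trivial) contains `SL₂(p)`. -/
theorem exists_sl2_of_quadratic_pair {p : ℕ} [hp : Fact p.Prime] (hD : DicksonHyp.{u} p)
    {A : Type u} [CommGroup A] [Finite A] [Nontrivial A] (hexp : ∀ a : A, a ^ p = 1)
    (x y : MulAut A) (hx : ∀ a, x (x a * a⁻¹) = x a * a⁻¹) (hy : ∀ a, y (y a * a⁻¹) = y a * a⁻¹)
    (hirr : ∀ B : Subgroup A, (∀ l ∈ Subgroup.closure {x, y}, ∀ b ∈ B, l b ∈ B) → B = ⊥ ∨ B = ⊤)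
    (hx1 : x ≠ 1) :
    ∃ K' : Subgroup ↥(Subgroup.closure {x, y}),
      Nonempty (K' ≃* Matrix.SpecialLinearGroup (Fin 2) (ZMod p)) := by
  obtain ⟨K, iF, iFt, iC, ψ, θ, H, hψ, hθ, hθval, hmap, hcard⟩ := exists_embedding hexp x y hx hy hirr hx1
  obtain ⟨K₀, hK₀, ⟨e⟩⟩ := hD K H hcard
  obtain ⟨K', ⟨e'⟩, -⟩ := exists_subgroup_equiv ((mulAutRep A).comp (Subgroup.closure {x, y}).subtype)
    ((mulAutRep_injective A).comp (Subgroup.subtype_injective _)) θ hθ K₀ (by
      refine (Subgroup.map_mono hK₀).trans ?_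
      rw [hmap, MonoidHom.range_eq_map, ← Subgroup.map_map, ← MonoidHom.range_eq_map, Subgroup.range_subtype])
  exact ⟨K', ⟨e'.trans e⟩⟩

theorem coreHyp_sl2Free {p : ℕ} [hp : Fact p.Prime] (hD : DicksonHyp.{u} p) :
    CoreHyp.{u} p (fun X _ => ¬ Involves (Matrix.SpecialLinearGroup (Fin 2) (ZMod p)) X) := by
  intro A _ _ _ hA hexp x y hx hy hirr hQ
  by_contra hx1
  apply hQ
  let _ : CommGroup A := { ‹Group A› with mul_comm := hA }
  obtain ⟨K', ⟨e⟩⟩ := exists_sl2_of_quadratic_pair hD hexp x y hx hy hirr hx1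
  exact involves_of_surjective K' e.toMonoidHom e.surjective

/-- **`SL₂(p)`-free groups are `p`-stable.** -/
theorem qStable_of_sl2Free {p : ℕ} [hp : Fact p.Prime] (hD : DicksonHyp.{u} p) {X : Type u} [Group X] [Finite X]
    (h : ¬ Involves (Matrix.SpecialLinearGroup (Fin 2) (ZMod p)) X) : QStable p X :=
  qStable_of_class (fun X _ => ¬ Involves (Matrix.SpecialLinearGroup (Fin 2) (ZMod p)) X)
    (fun _ _ _ K hK hc => hK (involves_subgroup K hc))
    (fun _ _ _ _ _ f hf hX hc => hX (involves_of_hom_surjective f hf hc)) (coreHyp_sl2Free hD) _ X rfl h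

end Cfsg.Agent.Lib.Helper11
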