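import Mathlib

/-! Weight spaces of a finite abelian group of order prime to the characteristic, and how a
normalizing element permutes them (tool for Landazuri-Seitz type bounds). -/

set_option autoImplicit false

namespace Cfsg.Agent.Lib.Helper11.Weights

open Module

section basic

variable {L : Type*} [Field L] {V : Type*} [AddCommGroup V] [Module L V]
variable {A : Type*}

/-- the weight space of the function `χ` -/
def wt (f : A → End L V) (χ : A → L) : Submodule L V := ⨅ a, (f a).eigenspace (χ a)

theorem mem_wt {f : A → End L V} {χ : A → L} {v : V} : v ∈ wt f χ ↔ ∀ a, f a v = χ a • v := by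
  simp [wt, Submodule.mem_iInf]

theorem wt_indep {f : A → End L V} (hc : ∀ a b, Commute (f a) (f b)) : iSupIndep (wt f) := by
  have h := End.independent_iInf_maxGenEigenspace_of_forall_mapsTo f
    (fun i j φ => End.mapsTo_maxGenEigenspace_of_comm (hc j i) φ)
  exact h.mono (fun χ => iInf_mono fun a => End.eigenspace_le_maxGenEigenspace)

theorem isSemisimple_of_pow_eq_one {g : End L V} {N : ℕ} (hN : (N : L) ≠ 0) (h : g ^ N = 1) :
    g.IsSemisimple := by
  apply End.isSemisimple_of_squarefree_aeval_eq_zero (p := Polynomial.X ^ N - 1)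
  · exact ((Polynomial.X_pow_sub_one_separable_iff).2 hN).squarefree
  · simp [h]

theorem iSup_wt [IsAlgClosed L] [FiniteDimensional L V] {f : A → End L V}
    (hc : ∀ a b, Commute (f a) (f b)) (hss : ∀ a, (f a).IsSemisimple) : ⨆ χ, wt f χ = ⊤ := by
  have := End.iSup_iInf_maxGenEigenspace_eq_top_of_iSup_maxGenEigenspace_eq_top_of_commute f
    (fun i j _ => hc i j) (fun i => End.iSup_maxGenEigenspace_eq_top (f i))
  simpa [wt, fun a => (hss a).isFinitelySemisimple.maxGenEigenspace_eq_eigenspace] using this

theorem card_le_finrank [FiniteDimensional L V] {f : A → End L V}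
    (hc : ∀ a b, Commute (f a) (f b)) {T : Type*} [Fintype T] (Φ : T → A → L)
    (hΦ : Function.Injective Φ) (h : ∀ t, wt f (Φ t) ≠ ⊥) : Fintype.card T ≤ finrank L V := by
  classical
  have h1 : iSupIndep (fun t => wt f (Φ t)) := (wt_indep hc).comp hΦ
  have h2 := h1.subtype_ne_bot_le_finrank
  have h3 : Fintype.card {t // wt f (Φ t) ≠ ⊥} = Fintype.card T :=
    Fintype.card_congr (Equiv.subtypeUnivEquiv h)
  omega

end basic

section rep

variable {K : Type*} [Field K] {d : ℕ} {G : Type*} [Group G]

/-- a matrix representation over `K`, viewed as a representation on `L ^ d`, `L` the algebraic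
closure of `K` -/
noncomputable def repL (ρ : G →* GL (Fin d) K) :
    G →* End (AlgebraicClosure K) (Fin d → AlgebraicClosure K) where
  toFun g := Matrix.toLin' ((ρ g).val.map (algebraMap K (AlgebraicClosure K)))
  map_one' := by
    rw [map_one, Units.val_one, Matrix.map_one _ (map_zero _) (map_one _), Matrix.toLin'_one]
    rfl
  map_mul' := by
    intro g h
    rw [map_mul, Units.val_mul, Matrix.map_mul, Matrix.toLin'_mul]
    rfl

theorem repL_eq_one_iff (ρ : G →* GL (Fin d) K) (g : G) : repL ρ g = 1 ↔ ρ g = 1 := by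
  constructor
  · intro h
    have h1 : Matrix.toLin' ((ρ g).val.map (algebraMap K (AlgebraicClosure K)))
        = Matrix.toLin' (1 : Matrix (Fin d) (Fin d) (AlgebraicClosure K)) := by
      rw [Matrix.toLin'_one]; exact h
    have h2 := Matrix.toLin'.injective h1
    rw [← Matrix.map_one (algebraMap K (AlgebraicClosure K)) (map_zero _) (map_one _)] at h2
    have h3 : (ρ g).val = 1 :=
      Matrix.map_injective (algebraMap K (AlgebraicClosure K)).injective h2
    exact Units.ext h3
  · intro h
    have : g ∈ (repL ρ).ker := by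
      change Matrix.toLin' ((ρ g).val.map (algebraMap K (AlgebraicClosure K))) = 1
      rw [h, Units.val_one, Matrix.map_one _ (map_zero _) (map_one _), Matrix.toLin'_one]
      rfl
    exact this

theorem repL_apply_ne_zero (ρ : G →* GL (Fin d) K) (g : G) {v : Fin d → AlgebraicClosure K}
    (hv : v ≠ 0) : repL ρ g v ≠ 0 := by
  intro h
  apply hv
  have : repL ρ g⁻¹ (repL ρ g v) = v := by
    rw [← End.mul_apply, ← map_mul, inv_mul_cancel, map_one, End.one_apply]
  rw [← this, h, map_zero]

variable {A : Type*} [AddCommGroup A]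

/-- the data: an additive group `A` embedded in `G` -/
structure Emb (u : A → G) : Prop where
  map_add : ∀ a b, u (a + b) = u a * u b

theorem Emb.map_zero {u : A → G} (hu : Emb u) : u 0 = 1 := by
  have := hu.map_add 0 0
  rw [add_zero] at this
  exact (mul_eq_left.mp this.symm)

theorem Emb.map_nsmul {u : A → G} (hu : Emb u) (n : ℕ) (a : A) : u (n • a) = u a ^ n := by
  induction n with
  | zero => simp [hu.map_zero]
  | succ k ih => rw [succ_nsmul, hu.map_add, ih, pow_succ]

/-- the operators of `A` -/
noncomputable def ops (ρ : G →* GL (Fin d) K) (u : A → G) :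
    A → End (AlgebraicClosure K) (Fin d → AlgebraicClosure K) := fun a => repL ρ (u a)

theorem ops_commute (ρ : G →* GL (Fin d) K) {u : A → G} (hu : Emb u) (a b : A) :
    Commute (ops ρ u a) (ops ρ u b) := by
  change repL ρ (u a) * repL ρ (u b) = repL ρ (u b) * repL ρ (u a)
  rw [← map_mul, ← map_mul, ← hu.map_add, ← hu.map_add, add_comm]

/-- the set of weights -/
def IsWt (ρ : G →* GL (Fin d) K) (u : A → G) (χ : A → AlgebraicClosure K) : Prop :=
  wt (ops ρ u) χ ≠ ⊥

theorem IsWt.exists_vec {ρ : G →* GL (Fin d) K} {u : A → G} {χ : A → AlgebraicClosure K}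
    (h : IsWt ρ u χ) : ∃ v : Fin d → AlgebraicClosure K, v ≠ 0 ∧ ∀ a, repL ρ (u a) v = χ a • v := by
  obtain ⟨v, hv, hv0⟩ := Submodule.exists_mem_ne_zero_of_ne_bot h
  exact ⟨v, hv0, mem_wt.mp hv⟩

theorem isWt_of_vec {ρ : G →* GL (Fin d) K} {u : A → G} {χ : A → AlgebraicClosure K}
    {v : Fin d → AlgebraicClosure K} (hv : v ≠ 0) (h : ∀ a, repL ρ (u a) v = χ a • v) :
    IsWt ρ u χ := by
  intro hb
  have : v ∈ wt (ops ρ u) χ := mem_wt.mpr h
  rw [hb, Submodule.mem_bot] at this
  exact hv this

/-- a weight is an additive character -/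
theorem IsWt.map_add {ρ : G →* GL (Fin d) K} {u : A → G} (hu : Emb u)
    {χ : A → AlgebraicClosure K} (h : IsWt ρ u χ) (a b : A) : χ (a + b) = χ a * χ b := by
  obtain ⟨v, hv, hf⟩ := h.exists_vec
  have h1 := hf (a + b)
  rw [hu.map_add, map_mul, End.mul_apply, hf b, map_smul, hf a, smul_smul] at h1
  have h2 : (χ b * χ a - χ (a + b)) • v = 0 := by rw [sub_smul, h1, sub_self]
  rcases smul_eq_zero.mp h2 with h3 | h3
  · rw [mul_comm]; exact (sub_eq_zero.mp h3).symm
  · exact absurd h3 hv

theorem IsWt.map_zero {ρ : G →* GL (Fin d) K} {u : A → G} (hu : Emb u)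
    {χ : A → AlgebraicClosure K} (h : IsWt ρ u χ) : χ 0 = 1 := by
  obtain ⟨v, hv, hf⟩ := h.exists_vec
  have h1 := hf 0
  rw [hu.map_zero, map_one, End.one_apply] at h1
  have h2 : (χ 0 - 1) • v = 0 := by rw [sub_smul, ← h1, one_smul, sub_self]
  rcases smul_eq_zero.mp h2 with h3 | h3
  · exact sub_eq_zero.mp h3
  · exact absurd h3 hv

/-- the additive character attached to a weight -/
def IsWt.toAddChar {ρ : G →* GL (Fin d) K} {u : A → G} (hu : Emb u)
    {χ : A → AlgebraicClosure K} (h : IsWt ρ u χ) : AddChar A (AlgebraicClosure K) where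
  toFun := χ
  map_zero_eq_one' := h.map_zero hu
  map_add_eq_mul' := h.map_add hu

/-- a normalizing element moves weights -/
theorem IsWt.move {ρ : G →* GL (Fin d) K} {u : A → G} {χ : A → AlgebraicClosure K}
    (h : IsWt ρ u χ) (g : G) (σ : A → A) (hg : ∀ a, u a * g = g * u (σ a)) :
    IsWt ρ u (χ ∘ σ) := by
  obtain ⟨v, hv, hf⟩ := h.exists_vec
  apply isWt_of_vec (repL_apply_ne_zero ρ g hv)
  intro a
  rw [← End.mul_apply, ← map_mul, hg a, map_mul, End.mul_apply, hf, map_smul]
  rfl

/-- if `A` does not act trivially there is a nontrivial weight -/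
theorem exists_isWt_ne_one (ρ : G →* GL (Fin d) K) {u : A → G} (hu : Emb u) {N : ℕ}
    (hN : (N : K) ≠ 0) (hA : ∀ a : A, N • a = 0) {a₀ : A} (ha₀ : ρ (u a₀) ≠ 1) :
    ∃ χ : A → AlgebraicClosure K, IsWt ρ u χ ∧ χ a₀ ≠ 1 := by
  by_contra hcon
  push Not at hcon
  have hN' : (N : AlgebraicClosure K) ≠ 0 := by
    have := (map_ne_zero (algebraMap K (AlgebraicClosure K))).mpr hN
    simpa using this
  have hss : ∀ a, (ops ρ u a).IsSemisimple := by
    intro a
    apply isSemisimple_of_pow_eq_one hN'
    change repL ρ (u a) ^ N = 1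
    rw [← map_pow, ← hu.map_nsmul, hA, hu.map_zero, map_one]
  have htop := iSup_wt (ops_commute ρ hu) hss
  apply ha₀
  rw [← repL_eq_one_iff]
  have hle : (⊤ : Submodule (AlgebraicClosure K) (Fin d → AlgebraicClosure K))
      ≤ (ops ρ u a₀).eigenspace 1 := by
    rw [← htop]
    apply iSup_le
    intro χ
    by_cases hχ : wt (ops ρ u) χ = ⊥
    · rw [hχ]; exact bot_le
    · have := hcon χ hχ
      calc wt (ops ρ u) χ ≤ (ops ρ u a₀).eigenspace (χ a₀) := iInf_le _ a₀
        _ = (ops ρ u a₀).eigenspace 1 := by rw [this]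
  apply LinearMap.ext
  intro v
  have := hle (Submodule.mem_top (x := v))
  rw [End.mem_eigenspace_iff, one_smul] at this
  exact this

/-- counting weights -/
theorem card_le_of_isWt (ρ : G →* GL (Fin d) K) {u : A → G} (hu : Emb u) {T : Type*} [Fintype T]
    (Φ : T → A → AlgebraicClosure K) (hΦ : Function.Injective Φ) (h : ∀ t, IsWt ρ u (Φ t)) :
    Fintype.card T ≤ d := by
  have := card_le_finrank (ops_commute ρ hu) Φ hΦ h
  simpa using this

end rep

section dual

/-- there are at most `|A|` additive characters -/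
theorem surjective_of_injective_addChar {A : Type*} [AddCommGroup A] [Finite A] {L : Type*}
    [Field L] (Ψ : A → AddChar A L) (hΨ : Function.Injective Ψ) : Function.Surjective Ψ := by
  classical
  have := Fintype.ofFinite A
  have hli : LinearIndependent L (fun χ : AddChar A L => (χ : A → L)) := by
    have h1 := linearIndependent_monoidHom (Multiplicative A) L
    have h2 := h1.comp (fun χ : AddChar A L => χ.toMonoidHom) (by
      intro χ ψ h
      exact AddChar.toMonoidHomEquiv.injective h)
    exact h2
  have hfin : Finite (AddChar A L) := hli.finite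
  have := Fintype.ofFinite (AddChar A L)
  have hcard : Fintype.card (AddChar A L) ≤ Fintype.card A := by
    have := hli.fintype_card_le_finrank
    simpa using this
  exact (Function.Injective.bijective_of_nat_card_le hΨ (by
    rw [Nat.card_eq_fintype_card, Nat.card_eq_fintype_card]; exact hcard)).2

end dual

end Cfsg.Agent.Lib.Helper11.Weights
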